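import Cfsg.Agent.H236.LocSp
import Cfsg.Agent.H250.LP.Psl

/-!
# `PSp_2m(q)` is not of local characteristic `p`, `p` odd, `p ∤ q`, nonabelian Sylow subgroup (helper247)

Piece (X) of S3046.
-/

set_option autoImplicit false
set_option linter.unusedSectionVars false

namespace Cfsg.Agent.H247.LP

open Subgroup Cfsg Cfsg.Agent.BpLin Cfsg.Agent.BpCl Cfsg.Agent.H236
open Cfsg.Agent.ClassicalGeometry.SympBasic Cfsg.Agent.ClassicalGeometry.SympAutSemi
  Cfsg.Agent.ClassicalGeometry.SympGamma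
open Cfsg.Agent.H238 (Loc)
open Cfsg.Agent.H250.LP (exists_pair_lift ws_of_loc na_congr)

universe u

/-- an element of odd order of the centre of `Sp_2m(F)` is trivial -/
theorem center_sp {F : Type u} [Field F] {m n : ℕ} (hm : 1 ≤ m) {Z : Matrix.symplecticGroup (Fin m) F} (hn : Odd n)
    (hZ : Z ∈ Subgroup.center (Matrix.symplecticGroup (Fin m) F)) (hZn : Z ^ n = 1) : Z = 1 := by
  obtain ⟨a, ha⟩ := (LieClassical.SympCenter.mem_center_iff m _).1 hZ
  have h5 : a * a = 1 := LieClassical.SympCenter.sq_eq_one_of_smul_mem hm (ha ▸ Z.2)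
  have h2 : Z ^ 2 = 1 := by
    rw [pow_two]
    apply Subtype.ext
    change Z.1 * Z.1 = 1
    rw [ha, smul_mul_smul_comm, one_mul, h5, one_smul]
  obtain ⟨j, rfl⟩ := hn
  rwa [pow_succ, pow_mul, h2, one_pow, one_mul] at hZn

/-- **`PSp_2m(q)`.** -/
theorem not_loc_psp {K : Type u} [Group K] [Finite K] [IsSimpleGroup K] {p r : ℕ} [hp : Fact p.Prime]
    [hr : Fact r.Prime] (hp2 : p ≠ 2) (hpr : p ≠ r) (hK : IsPSpChar r K)
    (hna : ∀ S : Sylow p K, ¬ IsMulCommutative ↥(S : Subgroup K)) : ¬ Loc p K := by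
  intro hl
  have hL : IsLieTypeChar r K := Or.inr (Or.inl hK)
  obtain ⟨F, _, _, hc, m, hm, -, ⟨e⟩⟩ := hK
  have hpF : (p : F) ≠ 0 := by
    intro h
    rw [CharP.cast_eq_zero_iff F r] at h
    exact hpr ((Nat.prime_dvd_prime_iff_eq hr.out hp.out).1 h).symm
  let π := QuotientGroup.mk' (Subgroup.center (Matrix.symplecticGroup (Fin m) F))
  obtain ⟨X, Y, Z, hXY, hXZ, hYZ, hZp, hZ1⟩ := exists_pair_lift (p := p) π (QuotientGroup.mk'_surjective _)
    (na_congr e hna)
  have hZ : Z ∉ Subgroup.center (Matrix.symplecticGroup (Fin m) F) := fun h =>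
    hZ1 (center_sp (by omega) (hp.out.odd_of_ne_two hp2) h hZp)
  have hzo : orderOf (π Z) = p := by
    apply orderOf_eq_prime
    · rw [← map_pow, hZp, map_one]
    · intro h
      exact hZ ((QuotientGroup.eq_one_iff _).1 h)
  have h5 := ws_of_loc hpr hL hl e hzo
  have h6 : WS r ↥(centralizer ({Z} : Set (Matrix.symplecticGroup (Fin m) F))) :=
    ws_lift (π := π) (by rw [QuotientGroup.ker_mk']) h5
  have hfr : Module.finrank F (Fin m ⊕ Fin m → F) = 2 * m := by
    rw [Module.finrank_fintype_fun_eq_card, Fintype.card_sum, Fintype.card_fin]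
    ring
  have h4 := sp_odd (r := r) hp.out hp2 hpF (B := sympBilin m F) (fun v => sympForm_self v)
    (fun u hu => eq_zero_of_forall_sympForm_right hu) (X := spLin m F X) (Y := spLin m F Y) (g := spLin m F Z)
    (fun u v => sympForm_rho X u v) (fun u v => sympForm_rho Y u v) (fun u v => sympForm_rho Z u v)
    (by rw [← hXY, map_mul, map_mul, map_mul, map_inv, map_inv])
    (fun v => LinearEquiv.congr_fun (show spLin m F X * spLin m F Z = spLin m F Z * spLin m F X by
      rw [← map_mul, hXZ, map_mul]) v)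
    (fun v => LinearEquiv.congr_fun (show spLin m F Y * spLin m F Z = spLin m F Z * spLin m F Y by
      rw [← map_mul, hYZ, map_mul]) v)
    (by rw [← map_pow, hZp, map_one])
    (by
      intro h
      apply hZ1
      exact spLin_injective (by rw [h, map_one])) (ws_spLin h6)
  rw [hfr] at h4
  obtain ⟨h7, h8, h9⟩ := h4
  subst h7
  obtain ⟨z, hz, hzw⟩ := LocSp.sp_three (F := F) (m := m) (r := r) h8 (by omega)
  exact hzw (ws_of_loc hpr hL hl e hz)

end Cfsg.Agent.H247.LP
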